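import Mathlib
import Cfsg.Agent.Lib.Comput.NetModel

/-! generated by tools/cgt -/

set_option autoImplicit false
set_option maxRecDepth 100000
set_option Elab.async false

namespace CfsgLib.LieModel.L32.P

open CfsgLib.Comput

noncomputable def n0 : Net :=
  Net.cons 2 0x2
  (Net.cons 4 0x3
  (Net.cons 2 0x1
  (Net.cons 1 0x11
  (Net.nil))))

noncomputable def n2 : Net :=
  Net.cons 1 0x11
  (Net.cons 2 0x10
  (Net.cons 4 0x3
  (Net.cons 2 0x13
  (Net.nil))))

noncomputable def n4 : Net :=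
  Net.cons 1 0x1
  (Net.cons 2 0x2
  (Net.cons 4 0x7
  (Net.cons 2 0x3
  (Net.cons 1 0x15
  (Net.nil)))))

noncomputable def n6 : Net :=
  Net.cons 2 0x2
  (Net.cons 4 0x2
  (Net.cons 2 0x12
  (Net.nil)))

noncomputable def n7 : Net :=
  Net.cons 1 0x10
  (Net.cons 2 0x2
  (Net.cons 4 0x2
  (Net.cons 2 0x12
  (Net.cons 1 0x10
  (Net.nil)))))

noncomputable def W : List Net := [n0, n0.rev, n2, n2.rev, n4, n4.rev, n6, n7]

theorem W_ok : allL (Net.ok 7) W = true := by decide +kernel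

end CfsgLib.LieModel.L32.P
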