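import Mathlib
import Cfsg.Agent.Lib.Comput.Check3
import Cfsg.Agent.Lib.LieModel.L32.P.Data

/-! generated by tools/cgt -/

set_option autoImplicit false
set_option maxRecDepth 100000
set_option Elab.async false

namespace CfsgLib.LieModel.L32.P

open CfsgLib.Comput

def R2_0 : RepC := ⟨8, 1, [],
  []⟩
def R2_1 : RepC := ⟨7, 1, [],
  []⟩
def R2_2 : RepC := ⟨0x708, 1, [],
  []⟩
def S2_0 : GenC := ⟨8, [],
  [(0, 0, 0, 1, 0), (0, 1, 0, 0, 0), (0, 2, 0, 3, 0), (0, 3, 0, 2, 0)], 0⟩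
def S2_1 : GenC := ⟨7, [],
  [(0, 0, 0, 2, 0), (0, 1, 0, 3, 0), (0, 2, 0, 0, 0), (0, 3, 0, 1, 0)], 0⟩
def L2 : Level := ⟨0x0, 0xc0, [], 1, 3, 0, 4, [R2_0, R2_1, R2_2], [S2_0, S2_1]⟩
def X2 : Ext := []

def R1_0 : RepC := ⟨0x606, 1, [(8, 8), (7, 0x708)],
  [(4, 1, [1, 2])]⟩
def R1_1 : RepC := ⟨0x705, 4, [],
  []⟩
def S1_0 : GenC := ⟨6, [],
  [(0, 0, 0x708, 2, 8), (7, 2, 0, 0, 0), (0x708, 2, 0, 1, 8), (0, 1, 7, 2, 0), (0, 2, 8, 2, 7), (8, 2, 0, 2, 0x708)], 0⟩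
def L1 : Level := ⟨0xc0, 0xf0, [8, 7], 4, 1, 0, 6, [R1_0, R1_1], [S1_0]⟩
def X1 : Ext := [(4, 6, 0)]

def R0_0 : RepC := ⟨0x602, 6, [(7, 0x60608), (0x708, 0x7060708)],
  [(3, 1, [1, 2])]⟩
def S0_0 : GenC := ⟨2, [(0x60608, 0x7050708), (0x7060708, 0x7060708)],
  [(0, 0, 5, 1, 0), (5, 1, 0, 0, 0x7060708), (0, 1, 0x606, 1, 0x50708), (6, 1, 6, 1, 0x70507)], 1⟩
def L0 : Level := ⟨0xf0, 0xff, [6, 8, 7], 24, 0, 0, 7, [R0_0], [S0_0]⟩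
def X0 : Ext := [(0, 2, 0), (2, 0, 0x20608), (3, 3, 0)]

def top : List ℕ := [1, 3]
def gs : List ℕ := [2, 6, 8, 7]
def XD : Ext := [(1, 1, 0), (3, 3, 0), (4, 0, 0x302040404), (5, 5, 0), (6, 0, 0x2030101), (7, 0, 0x60705050705)]
def MX : Level.MaxC := [[(5, [0])]]
def NC : NclD := ⟨4, 7, [(0, [1, 5, 0x60207060708]), (2, [0x107, 0x702070508])]⟩

/-- all the equations of the certificate -/
structure Eqs {G : Type*} [Group G] (g : ℕ → G) : Prop where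
  l2 : AllHold g L2.eqns
  x2 : AllHold g X2.eqns
  l1 : AllHold g L1.eqns
  x1 : AllHold g X1.eqns
  l0 : AllHold g L0.eqns
  x0 : AllHold g X0.eqns
  xd : AllHold g XD.eqns
  mx : AllHold g (L0.maxEqns MX)
  nc : AllHold g NC.eqns

end CfsgLib.LieModel.L32.P
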