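import Mathlib
import Cfsg.Agent.Lib.LieModel.L32.P.Cert
import Cfsg.Agent.Lib.LieModel.L32.P.Eq0
import Cfsg.Agent.Lib.LieModel.L32.P.Set0
import Cfsg.Agent.Lib.LieModel.L32.P.Set1

/-! generated by tools/cgt -/

set_option autoImplicit false
set_option maxRecDepth 100000
set_option Elab.async false

namespace CfsgLib.LieModel.L32.P

open CfsgLib.Comput

theorem eqs_of_WM {G : Type*} [Group G] {g : ℕ → G} (h : WM g (stepT 7 3 W) (idTab 7 3)) : Eqs g where
  l2 := (h.allHold e_l2_0)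
  x2 := (h.allHold e_x2_0)
  l1 := (h.allHold e_l1_0)
  x1 := (h.allHold e_x1_0)
  l0 := (h.allHold e_l0_0)
  x0 := (h.allHold e_x0_0)
  xd := (h.allHold e_xd_0)
  mx := (h.allHold e_mx_0)
  nc := (h.allHold e_nc_0)

theorem eqs_prod {G G' : Type*} [Group G] [Group G'] {g : ℕ → G} {g' : ℕ → G'} (E : Eqs g) (E' : Eqs g') :
    Eqs (fun m => (g m, g' m)) where
  l2 := E.l2.prod E'.l2
  x2 := E.x2.prod E'.x2
  l1 := E.l1.prod E'.l1
  x1 := E.x1.prod E'.x1
  l0 := E.l0.prod E'.l0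
  x0 := E.x0.prod E'.x0
  xd := E.xd.prod E'.xd
  mx := E.mx.prod E'.mx
  nc := E.nc.prod E'.nc

section
variable {G Ω : Type*} [Group G] [MulAction G Ω] {g : ℕ → G} {pt : ℕ → Ω}

theorem inA_2 (E : Eqs g) : InA g L2.B (cl g (L2.ts ++ L2.hs)) :=
  inA_up (A := L2.A) (InA.zero g _) L2.ts X2 E.x2 (by decide +kernel)

theorem good_2 (M : SM g 7 pt (stepN W)) (E : Eqs g) : L2.Good g pt :=
  L2.sound M (InA.zero g _) (inA_2 E) (card_cl_nil g) E.l2 s_2

theorem card_2 (M : SM g 7 pt (stepN W)) (E : Eqs g) : Nat.card (cl g (L2.ts ++ L2.hs)) = 4 :=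
  (good_2 M E).card (card_cl_nil g)

theorem inA_1 (E : Eqs g) : InA g L1.B (cl g (L1.ts ++ L1.hs)) :=
  inA_up (A := L1.A) (inA_2 E) L1.ts X1 E.x1 (by decide +kernel)

theorem good_1 (M : SM g 7 pt (stepN W)) (E : Eqs g) : L1.Good g pt :=
  L1.sound M (inA_2 E) (inA_1 E) (card_2 M E) E.l1 s_1

theorem card_1 (M : SM g 7 pt (stepN W)) (E : Eqs g) : Nat.card (cl g (L1.ts ++ L1.hs)) = 24 :=
  (good_1 M E).card (card_2 M E)

theorem inA_0 (E : Eqs g) : InA g L0.B (cl g (L0.ts ++ L0.hs)) :=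
  inA_up (A := L0.A) (inA_1 E) L0.ts X0 E.x0 (by decide +kernel)

theorem good_0 (M : SM g 7 pt (stepN W)) (E : Eqs g) : L0.Good g pt :=
  L0.sound M (inA_1 E) (inA_0 E) (card_1 M E) E.l0 s_0

theorem card_0 (M : SM g 7 pt (stepN W)) (E : Eqs g) : Nat.card (cl g (L0.ts ++ L0.hs)) = 168 :=
  (good_0 M E).card (card_1 M E)

theorem inA_top (E : Eqs g) : InA g 0xff (cl g top) := XD.sound' (inA_cl g top) E.xd (by decide +kernel)

theorem top_eq (E : Eqs g) : cl g top = cl g (L0.ts ++ L0.hs) := cl_eq_of_inA (inA_top E) (inA_0 E) (by decide +kernel)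

theorem card (M : SM g 7 pt (stepN W)) (E : Eqs g) : Nat.card (cl g top) = 168 := by rw [top_eq E]; exact card_0 M E

theorem maximal (M : SM g 7 pt (stepN W)) (E : Eqs g) (K : Subgroup G) (h1 : cl g L0.hs ≤ K) (h2 : K ≤ cl g (L0.ts ++ L0.hs)) :
    K = cl g L0.hs ∨ K = cl g (L0.ts ++ L0.hs) :=
  (good_0 M E).maximal (inA_1 E) MX E.mx (by decide +kernel) K h1 h2

theorem dichotomy (M : SM g 7 pt (stepN W)) (E : Eqs g) (K : Subgroup G) (hK : K ≤ cl g (L0.ts ++ L0.hs)) (hn : NormBy K (cl g (L0.ts ++ L0.hs))) :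
    K ≤ cl g L0.hs ∨ K = cl g (L0.ts ++ L0.hs) :=
  NC.dichotomy (inA_0 E) (top_eq E).ge E.nc (by decide +kernel) (card_1 M E) (good_0 M E).1.le (maximal M E) K hK hn

theorem base_faith (M : SM g 7 pt (stepN W)) (E : Eqs g) (x : G) (hx : x ∈ cl g (L0.ts ++ L0.hs)) (h : ∀ a ∈ [0, 1, 3], x • pt a = pt a) : x = 1 := by
  have h0 : x ∈ cl g L0.hs := (good_0 M E).1.stab x hx 1 (Subgroup.one_mem _) (by rw [one_smul]; exact h 0 (by decide))
  have h1 : x ∈ cl g L1.hs := (good_1 M E).1.stab x h0 1 (Subgroup.one_mem _) (by rw [one_smul]; exact h 1 (by decide))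
  have h2 : x ∈ cl g L2.hs := (good_2 M E).1.stab x h1 1 (Subgroup.one_mem _) (by rw [one_smul]; exact h 3 (by decide))
  exact Subgroup.mem_bot.1 (cl_nil g ▸ h2)

end

theorem M : SM (permG 7 W) 7 (finPt 7) (stepN W) := SM.perm W_ok (by norm_num)

theorem E : Eqs (permG 7 W) := eqs_of_WM (WM.perm W_ok (by norm_num))

theorem card_perm : Nat.card (cl (permG 7 W) top) = 168 := card M E

theorem simple_perm : IsSimpleGroup (cl (permG 7 W) top) := by
  rw [top_eq E]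
  exact isSimpleGroup_of_dichotomy (ne_bot_of_card (card_0 M E) (by norm_num)) (M.fixes s_fix)
    (perm_faithful_of_ncard ((good_0 M E).ncard_orbit (M.fixes s_fix))) (dichotomy M E)

end CfsgLib.LieModel.L32.P
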